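import Mathlib
import Cfsg.Prelude.Def_Sporadic_a

/-!
Intersection numbers of Steiner systems.
-/

set_option autoImplicit false
set_option maxHeartbeats 1000000

namespace Cfsg.Agent.L0.St

variable {α : Type*} [DecidableEq α]

/-- number of `t`-subsets of `b` containing `J` -/
theorem card_supersets {J b : Finset α} (hJb : J ⊆ b) {t : ℕ} (ht : J.card ≤ t) :
    ((b.powersetCard t).filter (J ⊆ ·)).card = Nat.choose (b.card - J.card) (t - J.card) := by
  rw [← Finset.card_sdiff_of_subset hJb, ← Finset.card_powersetCard]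
  refine Finset.card_bij' (fun s _ => s \ J) (fun s _ => s ∪ J) ?_ ?_ ?_ ?_
  · intro s hs
    rw [Finset.mem_filter, Finset.mem_powersetCard] at hs
    rw [Finset.mem_powersetCard]
    refine ⟨Finset.sdiff_subset_sdiff hs.1.1 le_rfl, ?_⟩
    rw [Finset.card_sdiff_of_subset hs.2, hs.1.2]
  · intro s hs
    rw [Finset.mem_powersetCard] at hs
    rw [Finset.mem_filter, Finset.mem_powersetCard]
    have hd : Disjoint s J := Finset.disjoint_of_subset_left hs.1 Finset.sdiff_disjoint
    refine ⟨⟨Finset.union_subset (hs.1.trans Finset.sdiff_subset) hJb, ?_⟩, Finset.subset_union_right⟩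
    rw [Finset.card_union_of_disjoint hd, hs.2]
    omega
  · intro s hs
    rw [Finset.mem_filter] at hs
    exact Finset.sdiff_union_of_subset hs.2
  · intro s hs
    rw [Finset.mem_powersetCard] at hs
    have hd : Disjoint s J := Finset.disjoint_of_subset_left hs.1 Finset.sdiff_disjoint
    exact Finset.union_sdiff_cancel_right hd

variable [Fintype α] {t k : ℕ}

/-- a Steiner system given by a finite set -/
structure Stn (t k : ℕ) (C : Finset (Finset α)) : Prop where
  card : ∀ b ∈ C, b.card = k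
  uniq : ∀ s : Finset α, s.card = t → ∃! b, b ∈ C ∧ s ⊆ b

theorem Stn.of {B : Set (Finset α)} (hB : Cfsg.IsSteinerSystem t k B) : ∃ C : Finset (Finset α), (∀ b, b ∈ C ↔ b ∈ B) ∧ Stn t k C := by
  classical
  refine ⟨(Set.toFinite B).toFinset, fun b => Set.Finite.mem_toFinset _, ⟨fun b hb => hB.1 b ((Set.Finite.mem_toFinset _).mp hb), fun s hs => ?_⟩⟩
  simp only [Set.Finite.mem_toFinset]
  exact hB.2 s hs

variable {C : Finset (Finset α)} (hC : Stn t k C)
include hC

theorem Stn.lam {J : Finset α} (hJ : J.card ≤ t) :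
    (C.filter (J ⊆ ·)).card * Nat.choose (k - J.card) (t - J.card) = Nat.choose (Fintype.card α - J.card) (t - J.card) := by
  rw [← Finset.card_univ, ← card_supersets (Finset.subset_univ J) hJ]
  have e1 : ∑ b ∈ C.filter (J ⊆ ·), ((b.powersetCard t).filter (J ⊆ ·)).card
      = (C.filter (J ⊆ ·)).card * Nat.choose (k - J.card) (t - J.card) := by
    rw [Finset.sum_congr rfl (g := fun _ => Nat.choose (k - J.card) (t - J.card)), Finset.sum_const, smul_eq_mul]
    intro b hb
    rw [Finset.mem_filter] at hb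
    rw [card_supersets hb.2 hJ, hC.card b hb.1]
  rw [← e1]
  have e2 : ∀ b ∈ C.filter (J ⊆ ·), ((b.powersetCard t).filter (J ⊆ ·)).card
      = ∑ s ∈ ((Finset.univ : Finset α).powersetCard t).filter (J ⊆ ·), if s ⊆ b then 1 else 0 := by
    intro b _
    rw [← Finset.sum_filter, ← Finset.card_eq_sum_ones]
    congr 1
    ext s
    simp only [Finset.mem_filter, Finset.mem_powersetCard, Finset.subset_univ, true_and]
    tauto
  rw [Finset.sum_congr rfl e2, Finset.sum_comm]
  have e3 : ∀ s ∈ ((Finset.univ : Finset α).powersetCard t).filter (J ⊆ ·), (∑ b ∈ C.filter (J ⊆ ·), if s ⊆ b then 1 else 0) = 1 := by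
    intro s hs
    rw [Finset.mem_filter, Finset.mem_powersetCard] at hs
    rw [← Finset.sum_filter, ← Finset.card_eq_sum_ones, Finset.card_eq_one]
    obtain ⟨b, ⟨hb, hsb⟩, hu⟩ := hC.uniq s hs.1.2
    refine ⟨b, ?_⟩
    ext b'
    simp only [Finset.mem_filter, Finset.mem_singleton]
    exact ⟨fun h => hu b' ⟨h.1.1, h.2⟩, fun h => by rw [h]; exact ⟨⟨hb, hs.2.trans hsb⟩, hsb⟩⟩
  rw [Finset.sum_congr rfl e3, Finset.sum_const, smul_eq_mul, mul_one]

omit hC in
theorem sum_choose (b : Finset α) (j : ℕ) :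
    ∑ c ∈ C, Nat.choose (b ∩ c).card j = ∑ J ∈ b.powersetCard j, (C.filter (J ⊆ ·)).card := by
  have e1 : ∀ J ∈ b.powersetCard j, (C.filter (J ⊆ ·)).card = ∑ c ∈ C, if J ⊆ c then 1 else 0 := by
    intro J _
    rw [← Finset.sum_filter, ← Finset.card_eq_sum_ones]
  rw [Finset.sum_congr rfl e1, Finset.sum_comm]
  refine Finset.sum_congr rfl fun c _ => ?_
  rw [← Finset.sum_filter, ← Finset.card_eq_sum_ones, ← Finset.card_powersetCard]
  congr 1
  ext s
  simp only [Finset.mem_filter, Finset.mem_powersetCard, Finset.subset_inter_iff]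
  tauto

/-- intersection number -/
def nI (C : Finset (Finset α)) (b : Finset α) (i : ℕ) : ℕ := (C.filter (fun c => (b ∩ c).card = i)).card

omit hC [Fintype α] in
theorem sum_nI {b : Finset α} {m : ℕ} (hm : b.card ≤ m) (f : ℕ → ℕ) : ∑ c ∈ C, f (b ∩ c).card = ∑ i ∈ Finset.range (m + 1), nI C b i * f i := by
  rw [← Finset.sum_fiberwise_of_maps_to (s := C) (t := Finset.range (m + 1)) (g := fun c => (b ∩ c).card)]
  · refine Finset.sum_congr rfl fun i _ => ?_
    rw [Finset.sum_congr rfl (g := fun _ => f i), Finset.sum_const, smul_eq_mul]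
    · rfl
    · intro c hc
      rw [Finset.mem_filter] at hc
      rw [hc.2]
  · intro c _
    rw [Finset.mem_range]
    have := Finset.card_le_card (Finset.inter_subset_left : b ∩ c ⊆ b)
    omega

theorem Stn.eqn {b : Finset α} {j lam m : ℕ} (hm : b.card = m) (hj : j ≤ t)
    (hl : lam * Nat.choose (k - j) (t - j) = Nat.choose (Fintype.card α - j) (t - j)) (hpos : 0 < Nat.choose (k - j) (t - j)) :
    ∑ i ∈ Finset.range (m + 1), nI C b i * Nat.choose i j = Nat.choose m j * lam := by
  rw [← sum_nI hm.le (fun i => Nat.choose i j), sum_choose]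
  rw [Finset.sum_congr rfl (g := fun _ => lam), Finset.sum_const, smul_eq_mul, Finset.card_powersetCard, hm]
  intro J hJ
  rw [Finset.mem_powersetCard] at hJ
  have h1 := hC.lam (J := J) (by rw [hJ.2]; exact hj)
  rw [hJ.2, ← hl] at h1
  exact Nat.eq_of_mul_eq_mul_right hpos h1

theorem Stn.eq_of_card {b c : Finset α} (hb : b ∈ C) (hc : c ∈ C) (h : t ≤ (b ∩ c).card) : b = c := by
  obtain ⟨s, hs, hst⟩ := Finset.exists_subset_card_eq h
  obtain ⟨d, -, hu⟩ := hC.uniq s hst
  rw [hu b ⟨hb, hs.trans Finset.inter_subset_left⟩, hu c ⟨hc, hs.trans Finset.inter_subset_right⟩]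

theorem Stn.nI_self {b : Finset α} (hb : b ∈ C) : nI C b k = 1 := by
  unfold nI
  rw [Finset.card_eq_one]
  refine ⟨b, ?_⟩
  ext c
  rw [Finset.mem_filter, Finset.mem_singleton]
  constructor
  · rintro ⟨hc, h⟩
    have h1 : b ∩ c = b := Finset.eq_of_subset_of_card_le Finset.inter_subset_left (by rw [h, hC.card b hb])
    have h2 : b ∩ c = c := Finset.eq_of_subset_of_card_le Finset.inter_subset_right (by rw [h, hC.card c hc])
    rw [← h2, h1]
  · rintro rfl
    exact ⟨hb, by rw [Finset.inter_self, hC.card c hb]⟩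

theorem Stn.nI_zero {b : Finset α} (hb : b ∈ C) {i : ℕ} (h1 : t ≤ i) (h2 : i < k) : nI C b i = 0 := by
  unfold nI
  rw [Finset.card_eq_zero, Finset.filter_eq_empty_iff]
  intro c hc h
  have := hC.eq_of_card hb hc (by rw [h]; exact h1)
  rw [← this, Finset.inter_self, hC.card b hb] at h
  omega

omit hC [Fintype α] in
theorem nI_ne {b c : Finset α} (hc : c ∈ C) {i : ℕ} (h : nI C b i = 0) : (b ∩ c).card ≠ i := by
  unfold nI at h
  rw [Finset.card_eq_zero, Finset.filter_eq_empty_iff] at h
  exact h hc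

end Cfsg.Agent.L0.St
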