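import Cfsg.Agent.L0.St.Steiner

set_option autoImplicit false
set_option maxHeartbeats 1000000

namespace Cfsg.Agent.L0.St
variable {α : Type*} [DecidableEq α] [Fintype α] {C : Finset (Finset α)}

theorem s24 (hα : Fintype.card α = 24) (hC : Stn 5 8 C) {b : Finset α} (hb : b ∈ C) :
    nI C b 0 = 30 ∧ nI C b 1 = 0 ∧ nI C b 2 = 448 ∧ nI C b 3 = 0 ∧ nI C b 4 = 280 ∧ nI C b 5 = 0 ∧ nI C b 6 = 0 ∧ nI C b 7 = 0 := by
  have h8 := hC.nI_self hb
  have h5 := hC.nI_zero hb (i := 5) (by norm_num) (by norm_num)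
  have h6 := hC.nI_zero hb (i := 6) (by norm_num) (by norm_num)
  have h7 := hC.nI_zero hb (i := 7) (by norm_num) (by norm_num)
  have e4 := hC.eqn (j := 4) (lam := 5) (hC.card b hb) (by norm_num) (by rw [hα]; decide) (by decide)
  have e3 := hC.eqn (j := 3) (lam := 21) (hC.card b hb) (by norm_num) (by rw [hα]; decide) (by decide)
  have e2 := hC.eqn (j := 2) (lam := 77) (hC.card b hb) (by norm_num) (by rw [hα]; decide) (by decide)
  have e1 := hC.eqn (j := 1) (lam := 253) (hC.card b hb) (by norm_num) (by rw [hα]; decide) (by decide)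
  have e0 := hC.eqn (j := 0) (lam := 759) (hC.card b hb) (by norm_num) (by rw [hα]; decide) (by decide)
  simp only [Finset.sum_range_succ, Finset.sum_range_zero, h8, h5, h6, h7] at e4 e3 e2 e1 e0
  norm_num [Nat.choose] at e4 e3 e2 e1 e0
  refine ⟨?_, ?_, ?_, ?_, ?_, h5, h6, h7⟩ <;> omega

theorem inter24 (hα : Fintype.card α = 24) (hC : Stn 5 8 C) {b c : Finset α} (hb : b ∈ C) (hc : c ∈ C) (hbc : b ≠ c) :
    (b ∩ c).card = 0 ∨ (b ∩ c).card = 2 ∨ (b ∩ c).card = 4 := by
  obtain ⟨-, h1, -, h3, -, h5, h6, h7⟩ := s24 hα hC hb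
  have hle : (b ∩ c).card ≤ 8 := by rw [← hC.card b hb]; exact Finset.card_le_card Finset.inter_subset_left
  have h8 : (b ∩ c).card < 5 := by
    by_contra hcon
    exact hbc (hC.eq_of_card hb hc (by omega))
  have := nI_ne hc h1
  have := nI_ne hc h3
  omega

theorem s23 (hα : Fintype.card α = 23) (hC : Stn 4 7 C) {b c : Finset α} (hb : b ∈ C) (hc : c ∈ C) (hbc : b ≠ c) :
    (b ∩ c).card = 1 ∨ (b ∩ c).card = 3 := by
  have h8 := hC.nI_self hb
  have h5 := hC.nI_zero hb (i := 4) (by norm_num) (by norm_num)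
  have h6 := hC.nI_zero hb (i := 5) (by norm_num) (by norm_num)
  have h7 := hC.nI_zero hb (i := 6) (by norm_num) (by norm_num)
  have e3 := hC.eqn (j := 3) (lam := 5) (hC.card b hb) (by norm_num) (by rw [hα]; decide) (by decide)
  have e2 := hC.eqn (j := 2) (lam := 21) (hC.card b hb) (by norm_num) (by rw [hα]; decide) (by decide)
  have e1 := hC.eqn (j := 1) (lam := 77) (hC.card b hb) (by norm_num) (by rw [hα]; decide) (by decide)
  have e0 := hC.eqn (j := 0) (lam := 253) (hC.card b hb) (by norm_num) (by rw [hα]; decide) (by decide)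
  simp only [Finset.sum_range_succ, Finset.sum_range_zero, h8, h5, h6, h7] at e3 e2 e1 e0
  norm_num [Nat.choose] at e3 e2 e1 e0
  have h0 : nI C b 0 = 0 := by omega
  have h2 : nI C b 2 = 0 := by omega
  have hlt : (b ∩ c).card < 4 := by
    by_contra hcon
    exact hbc (hC.eq_of_card hb hc (by omega))
  have := nI_ne hc h0
  have := nI_ne hc h2
  omega

theorem s22 (hα : Fintype.card α = 22) (hC : Stn 3 6 C) {b c : Finset α} (hb : b ∈ C) (hc : c ∈ C) (hbc : b ≠ c) :
    (b ∩ c).card = 0 ∨ (b ∩ c).card = 2 := by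
  have h8 := hC.nI_self hb
  have h5 := hC.nI_zero hb (i := 3) (by norm_num) (by norm_num)
  have h6 := hC.nI_zero hb (i := 4) (by norm_num) (by norm_num)
  have h7 := hC.nI_zero hb (i := 5) (by norm_num) (by norm_num)
  have e2 := hC.eqn (j := 2) (lam := 5) (hC.card b hb) (by norm_num) (by rw [hα]; decide) (by decide)
  have e1 := hC.eqn (j := 1) (lam := 21) (hC.card b hb) (by norm_num) (by rw [hα]; decide) (by decide)
  have e0 := hC.eqn (j := 0) (lam := 77) (hC.card b hb) (by norm_num) (by rw [hα]; decide) (by decide)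
  simp only [Finset.sum_range_succ, Finset.sum_range_zero, h8, h5, h6, h7] at e2 e1 e0
  norm_num [Nat.choose] at e2 e1 e0
  have h0 : nI C b 1 = 0 := by omega
  have hlt : (b ∩ c).card < 3 := by
    by_contra hcon
    exact hbc (hC.eq_of_card hb hc (by omega))
  have := nI_ne hc h0
  omega

theorem s12 (hα : Fintype.card α = 12) (hC : Stn 5 6 C) {b : Finset α} (hb : b ∈ C) :
    nI C b 0 = 1 ∧ nI C b 1 = 0 ∧ nI C b 2 = 45 ∧ nI C b 3 = 40 ∧ nI C b 4 = 45 ∧ nI C b 5 = 0 := by
  have h8 := hC.nI_self hb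
  have h5 := hC.nI_zero hb (i := 5) (by norm_num) (by norm_num)
  have e4 := hC.eqn (j := 4) (lam := 4) (hC.card b hb) (by norm_num) (by rw [hα]; decide) (by decide)
  have e3 := hC.eqn (j := 3) (lam := 12) (hC.card b hb) (by norm_num) (by rw [hα]; decide) (by decide)
  have e2 := hC.eqn (j := 2) (lam := 30) (hC.card b hb) (by norm_num) (by rw [hα]; decide) (by decide)
  have e1 := hC.eqn (j := 1) (lam := 66) (hC.card b hb) (by norm_num) (by rw [hα]; decide) (by decide)
  have e0 := hC.eqn (j := 0) (lam := 132) (hC.card b hb) (by norm_num) (by rw [hα]; decide) (by decide)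
  simp only [Finset.sum_range_succ, Finset.sum_range_zero, h8, h5] at e4 e3 e2 e1 e0
  norm_num [Nat.choose] at e4 e3 e2 e1 e0
  refine ⟨?_, ?_, ?_, ?_, ?_, h5⟩ <;> omega

theorem compl12 (hα : Fintype.card α = 12) (hC : Stn 5 6 C) {b : Finset α} (hb : b ∈ C) : bᶜ ∈ C := by
  obtain ⟨h0, -⟩ := s12 hα hC hb
  unfold nI at h0
  rw [Finset.card_eq_one] at h0
  obtain ⟨c, hc⟩ := h0
  have h1 : c ∈ C.filter (fun c => (b ∩ c).card = 0) := by rw [hc]; exact Finset.mem_singleton_self c
  rw [Finset.mem_filter, Finset.card_eq_zero] at h1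
  have h2 : c ⊆ bᶜ := by
    intro x hx
    rw [Finset.mem_compl]
    intro hxb
    have : x ∈ b ∩ c := Finset.mem_inter.mpr ⟨hxb, hx⟩
    rw [h1.2] at this
    exact absurd this (Finset.notMem_empty x)
  have h3 : c = bᶜ := by
    apply Finset.eq_of_subset_of_card_le h2
    rw [Finset.card_compl, hα, hC.card b hb, hC.card c h1.1]
  rw [← h3]; exact h1.1

/-- octads through five points -/
theorem Stn.exists_five (hC : Stn 5 8 C) (s : Finset α) (hs : s.card = 5) : ∃ o ∈ C, s ⊆ o := by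
  obtain ⟨o, ⟨h1, h2⟩, -⟩ := hC.uniq s hs
  exact ⟨o, h1, h2⟩

end Cfsg.Agent.L0.St
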