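import Cfsg.Agent.L0.St.Steiner2

set_option autoImplicit false
set_option maxHeartbeats 1000000

namespace Cfsg.Agent.L0.St
variable {α : Type*} [DecidableEq α] [Fintype α] {C : Finset (Finset α)}

theorem Stn.eq_of_sub (hC : Stn 5 8 C) {o o' s : Finset α} (ho : o ∈ C) (ho' : o' ∈ C) (hs : 5 ≤ s.card) (h1 : s ⊆ o) (h2 : s ⊆ o') : o = o' :=
  hC.eq_of_card ho ho' (hs.trans (Finset.card_le_card (Finset.subset_inter h1 h2)))

theorem lemN (hα : Fintype.card α = 24) (hC : Stn 5 8 C) {b c : Finset α} (hb : b ∈ C) (hc : c ∈ C) (hY : (b \ c).card = 4)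
    (hZ : (c \ b).card = 4) {y : α} (hy : y ∈ b \ c) {o : Finset α} (ho : o ∈ C) (hYo : b \ c ⊆ o) {z z' w : α} (hz : z ∈ c \ b)
    (hzo : z ∈ o) (hz' : z' ∈ c \ b) (hzo' : z' ∈ o) (hzz : z ≠ z') (hw : w ∈ c \ b) (hwo : w ∉ o) :
    ∃ o' ∈ C, (b \ c).erase y ⊆ o' ∧ z ∈ o' ∧ z' ∉ o' ∧ o' ∩ (c \ b) = (c \ b).erase z' := by
  have hzw : z ≠ w := by rintro rfl; exact hwo hzo
  have hTc : ((b \ c).erase y).card = 3 := by rw [Finset.card_erase_of_mem hy, hY]
  have hnot : ∀ u ∈ c \ b, u ∉ b \ c := by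
    intro u hu hu'
    rw [Finset.mem_sdiff] at hu hu'
    exact hu.2 hu'.1
  have hcard : (insert z (insert w ((b \ c).erase y))).card = 5 := by
    rw [Finset.card_insert_of_notMem, Finset.card_insert_of_notMem, hTc]
    · intro h; exact hnot w hw (Finset.mem_of_mem_erase h)
    · intro h
      rw [Finset.mem_insert] at h
      rcases h with h | h
      · exact hzw h
      · exact hnot z hz (Finset.mem_of_mem_erase h)
  obtain ⟨o', ho', hs⟩ := hC.exists_five _ hcard
  have hzo1 : z ∈ o' := hs (Finset.mem_insert_self _ _)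
  have hwo1 : w ∈ o' := hs (Finset.mem_insert_of_mem (Finset.mem_insert_self _ _))
  have hTo : (b \ c).erase y ⊆ o' := fun u hu => hs (Finset.mem_insert_of_mem (Finset.mem_insert_of_mem hu))
  have hne : o ≠ o' := by rintro rfl; exact hwo hwo1
  have hy' : y ∉ o' := by
    intro h
    apply hne
    refine hC.eq_of_sub ho ho' (s := insert z (b \ c)) ?_ ?_ ?_
    · rw [Finset.card_insert_of_notMem (hnot z hz), hY]
    · exact Finset.insert_subset hzo hYo
    · refine Finset.insert_subset hzo1 fun u hu => ?_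
      by_cases huy : u = y
      · rw [huy]; exact h
      · exact hTo (Finset.mem_erase.mpr ⟨huy, hu⟩)
  have hz'o : z' ∉ o' := by
    intro h
    apply hne
    refine hC.eq_of_sub ho ho' (s := insert z (insert z' ((b \ c).erase y))) ?_ ?_ ?_
    · rw [Finset.card_insert_of_notMem, Finset.card_insert_of_notMem, hTc]
      · intro h; exact hnot z' hz' (Finset.mem_of_mem_erase h)
      · intro h
        rw [Finset.mem_insert] at h
        rcases h with h | h
        · exact hzz h
        · exact hnot z hz (Finset.mem_of_mem_erase h)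
    · exact Finset.insert_subset hzo (Finset.insert_subset hzo' fun u hu => hYo (Finset.mem_of_mem_erase hu))
    · exact Finset.insert_subset hzo1 (Finset.insert_subset h hTo)
  -- counts
  have hbne : b ≠ o' := by
    rintro rfl
    rw [Finset.mem_sdiff] at hy
    exact hy' hy.1
  have hcne : c ≠ o' := by
    rintro rfl
    rw [Finset.mem_sdiff] at hz'
    exact hz'o hz'.1
  have k1 : (b ∩ o').card = ((b ∩ c) ∩ o').card + ((b \ c) ∩ o').card := by
    rw [← Finset.card_union_of_disjoint]
    · congr 1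
      ext u; simp only [Finset.mem_inter, Finset.mem_union, Finset.mem_sdiff]; tauto
    · rw [Finset.disjoint_left]
      intro u hu hu'
      simp only [Finset.mem_inter, Finset.mem_sdiff] at hu hu'
      exact hu'.1.2 hu.1.2
  have k2 : (c ∩ o').card = ((b ∩ c) ∩ o').card + ((c \ b) ∩ o').card := by
    rw [← Finset.card_union_of_disjoint]
    · congr 1
      ext u; simp only [Finset.mem_inter, Finset.mem_union, Finset.mem_sdiff]; tauto
    · rw [Finset.disjoint_left]
      intro u hu hu'
      simp only [Finset.mem_inter, Finset.mem_sdiff] at hu hu'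
      exact hu'.1.2 hu.1.1
  have k3 : ((b \ c) ∩ o').card = 3 := by
    rw [← hTc]
    congr 1
    ext u
    simp only [Finset.mem_inter, Finset.mem_erase]
    constructor
    · rintro ⟨h1, h2⟩
      exact ⟨by rintro rfl; exact hy' h2, h1⟩
    · rintro ⟨h1, h2⟩
      exact ⟨h2, hTo (Finset.mem_erase.mpr ⟨h1, h2⟩)⟩
  have k4 : 2 ≤ ((c \ b) ∩ o').card := by
    have h1 : ({z, w} : Finset α) ⊆ (c \ b) ∩ o' := by
      intro u hu
      rw [Finset.mem_insert, Finset.mem_singleton] at hu
      rcases hu with rfl | rfl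
      · exact Finset.mem_inter.mpr ⟨hz, hzo1⟩
      · exact Finset.mem_inter.mpr ⟨hw, hwo1⟩
    have h2 := Finset.card_le_card h1
    rwa [Finset.card_pair hzw] at h2
  have i1 := inter24 hα hC hb ho' hbne
  have i2 := inter24 hα hC hc ho' hcne
  have k5 : ((c \ b) ∩ o').card = 3 := by omega
  refine ⟨o', ho', hTo, hzo1, hz'o, ?_⟩
  rw [Finset.inter_comm]
  apply Finset.eq_of_subset_of_card_le
  · intro u hu
    rw [Finset.mem_inter] at hu
    exact Finset.mem_erase.mpr ⟨by rintro rfl; exact hz'o hu.2, hu.1⟩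
  · rw [k5, Finset.card_erase_of_mem hz', hZ]

theorem symm24 (hα : Fintype.card α = 24) (hC : Stn 5 8 C) {b c : Finset α} (hb : b ∈ C) (hc : c ∈ C) (h4 : (b ∩ c).card = 4) :
    symmDiff b c ∈ C := by
  have hY : (b \ c).card = 4 := by
    have h1 := Finset.card_sdiff_add_card_inter b c
    rw [h4, hC.card b hb] at h1
    omega
  have hZ : (c \ b).card = 4 := by
    have h1 := Finset.card_sdiff_add_card_inter c b
    rw [Finset.inter_comm, h4, hC.card c hc] at h1
    omega
  have hnot : ∀ u ∈ c \ b, u ∉ b \ c := by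
    intro u hu hu'
    rw [Finset.mem_sdiff] at hu hu'
    exact hu.2 hu'.1
  obtain ⟨z1, hz1⟩ : (c \ b).Nonempty := by rw [← Finset.card_pos, hZ]; norm_num
  obtain ⟨y, hy⟩ : (b \ c).Nonempty := by rw [← Finset.card_pos, hY]; norm_num
  obtain ⟨o, ho, hs⟩ := hC.exists_five (insert z1 (b \ c)) (by rw [Finset.card_insert_of_notMem (hnot z1 hz1), hY])
  have hz1o : z1 ∈ o := hs (Finset.mem_insert_self _ _)
  have hYo : b \ c ⊆ o := fun u hu => hs (Finset.mem_insert_of_mem hu)
  have hbne : b ≠ o := by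
    rintro rfl
    rw [Finset.mem_sdiff] at hz1
    exact hz1.2 hz1o
  have hcne : c ≠ o := by
    rintro rfl
    have := hYo hy
    rw [Finset.mem_sdiff] at hy
    exact hy.2 this
  have k1 : (b ∩ o).card = ((b ∩ c) ∩ o).card + ((b \ c) ∩ o).card := by
    rw [← Finset.card_union_of_disjoint]
    · congr 1
      ext u; simp only [Finset.mem_inter, Finset.mem_union, Finset.mem_sdiff]; tauto
    · rw [Finset.disjoint_left]
      intro u hu hu'
      simp only [Finset.mem_inter, Finset.mem_sdiff] at hu hu'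
      exact hu'.1.2 hu.1.2
  have k2 : (c ∩ o).card = ((b ∩ c) ∩ o).card + ((c \ b) ∩ o).card := by
    rw [← Finset.card_union_of_disjoint]
    · congr 1
      ext u; simp only [Finset.mem_inter, Finset.mem_union, Finset.mem_sdiff]; tauto
    · rw [Finset.disjoint_left]
      intro u hu hu'
      simp only [Finset.mem_inter, Finset.mem_sdiff] at hu hu'
      exact hu'.1.2 hu.1.1
  have k3 : ((b \ c) ∩ o).card = 4 := by rw [Finset.inter_eq_left.mpr hYo, hY]
  have i1 := inter24 hα hC hb ho hbne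
  have i2 := inter24 hα hC hc ho hcne
  have k4 : 1 ≤ ((c \ b) ∩ o).card := by
    rw [Nat.one_le_iff_ne_zero, Ne, Finset.card_eq_zero]
    intro h
    have : z1 ∈ (c \ b) ∩ o := Finset.mem_inter.mpr ⟨hz1, hz1o⟩
    rw [h] at this
    exact absurd this (Finset.notMem_empty _)
  have k5 : ((c \ b) ∩ o).card = 2 ∨ ((c \ b) ∩ o).card = 4 := by omega
  rcases k5 with k5 | k5
  · exfalso
    obtain ⟨z, z', hzz, hE⟩ := Finset.card_eq_two.mp k5
    have hz := Finset.mem_inter.mp (hE ▸ Finset.mem_insert_self z {z'} : z ∈ (c \ b) ∩ o)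
    have hz' := Finset.mem_inter.mp (hE ▸ Finset.mem_insert_of_mem (Finset.mem_singleton_self z') : z' ∈ (c \ b) ∩ o)
    obtain ⟨w, hw, hwo⟩ : ∃ w ∈ c \ b, w ∉ o := by
      by_contra hcon
      push Not at hcon
      rw [Finset.inter_eq_left.mpr hcon, hZ] at k5
      norm_num at k5
    obtain ⟨o1, ho1, hT1, hzo1, hz'o1, hI1⟩ := lemN hα hC hb hc hY hZ hy ho hYo hz.1 hz.2 hz'.1 hz'.2 hzz hw hwo
    obtain ⟨o2, ho2, hT2, hzo2, hz'o2, hI2⟩ := lemN hα hC hb hc hY hZ hy ho hYo hz'.1 hz'.2 hz.1 hz.2 hzz.symm hw hwo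
    have h12 : o1 = o2 := by
      refine hC.eq_of_sub ho1 ho2 (s := (b \ c).erase y ∪ ((c \ b).erase z').erase z) ?_ ?_ ?_
      · rw [Finset.card_union_of_disjoint, Finset.card_erase_of_mem hy, hY, Finset.card_erase_of_mem (Finset.mem_erase.mpr ⟨hzz, hz.1⟩),
          Finset.card_erase_of_mem hz'.1, hZ]
        rw [Finset.disjoint_left]
        intro u hu hu'
        exact hnot u (Finset.mem_of_mem_erase (Finset.mem_of_mem_erase hu')) (Finset.mem_of_mem_erase hu)
      · refine Finset.union_subset hT1 fun u hu => ?_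
        have : u ∈ o1 ∩ (c \ b) := by rw [hI1]; exact Finset.mem_of_mem_erase hu
        exact (Finset.mem_inter.mp this).1
      · refine Finset.union_subset hT2 fun u hu => ?_
        have : u ∈ o2 ∩ (c \ b) := by
          rw [hI2]
          rw [Finset.mem_erase, Finset.mem_erase] at hu
          exact Finset.mem_erase.mpr ⟨hu.1, hu.2.2⟩
        exact (Finset.mem_inter.mp this).1
    exact hz'o2 (h12 ▸ hzo1)
  · have h1 : symmDiff b c = o := by
      rw [symmDiff_def]
      change b \ c ∪ c \ b = o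
      have h2 : c \ b ⊆ o := by
        have := Finset.eq_of_subset_of_card_le (Finset.inter_subset_left : (c \ b) ∩ o ⊆ c \ b) (by rw [k5, hZ])
        rw [← this]; exact Finset.inter_subset_right
      apply Finset.eq_of_subset_of_card_le (Finset.union_subset hYo h2)
      rw [hC.card o ho, Finset.card_union_of_disjoint, hY, hZ]
      rw [Finset.disjoint_left]
      intro u hu hu'
      exact hnot u hu' hu
    rw [h1]; exact ho

end Cfsg.Agent.L0.St
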