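import Cfsg.Agent.L0.St.Steiner2

set_option autoImplicit false
set_option maxHeartbeats 1000000

namespace Cfsg.Agent.L0.St
variable {α : Type*} [DecidableEq α] [Fintype α] {C : Finset (Finset α)}

theorem three24 (hα : Fintype.card α = 24) (hC : Stn 5 8 C) {Y : Finset α} (hY : Y.card = 3) :
    nI C Y 3 = 21 ∧ nI C Y 2 = 168 ∧ nI C Y 1 = 360 ∧ nI C Y 0 = 210 := by
  have e3 := hC.eqn (j := 3) (lam := 21) hY (by norm_num) (by rw [hα]; decide) (by decide)
  have e2 := hC.eqn (j := 2) (lam := 77) hY (by norm_num) (by rw [hα]; decide) (by decide)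
  have e1 := hC.eqn (j := 1) (lam := 253) hY (by norm_num) (by rw [hα]; decide) (by decide)
  have e0 := hC.eqn (j := 0) (lam := 759) hY (by norm_num) (by rw [hα]; decide) (by decide)
  simp only [Finset.sum_range_succ, Finset.sum_range_zero] at e3 e2 e1 e0
  norm_num [Nat.choose] at e3 e2 e1 e0
  refine ⟨?_, ?_, ?_, ?_⟩ <;> omega

/-- blocks meeting `b` exactly in `s` -/
def eI (C : Finset (Finset α)) (b s : Finset α) : ℕ := (C.filter (fun c => b ∩ c = s)).card

omit [Fintype α] in
theorem card_eq_sum_eI {b s : Finset α} (hsb : s ⊆ b) :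
    (C.filter (s ⊆ ·)).card = ∑ u ∈ (b \ s).powerset, eI C b (s ∪ u) := by
  rw [Finset.card_eq_sum_card_fiberwise (f := fun c => (b ∩ c) \ s) (t := (b \ s).powerset)]
  · refine Finset.sum_congr rfl fun u hu => ?_
    rw [Finset.mem_powerset] at hu
    unfold eI
    congr 1
    ext c
    simp only [Finset.mem_filter]
    constructor
    · rintro ⟨⟨h1, h2⟩, h3⟩
      refine ⟨h1, ?_⟩
      rw [← h3]
      rw [Finset.union_sdiff_of_subset (Finset.subset_inter hsb h2)]
    · rintro ⟨h1, h2⟩
      refine ⟨⟨h1, ?_⟩, ?_⟩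
      · intro x hx
        have : x ∈ b ∩ c := by rw [h2]; exact Finset.mem_union_left _ hx
        exact (Finset.mem_inter.mp this).2
      · rw [h2]
        have hd : Disjoint s u := Finset.disjoint_left.mpr fun x hx hx' => (Finset.mem_sdiff.mp (hu hx')).2 hx
        exact Finset.union_sdiff_cancel_left hd
  · intro c _
    simp only [Finset.coe_powerset, Set.mem_preimage, Set.mem_powerset_iff, Finset.coe_subset]
    exact Finset.sdiff_subset_sdiff Finset.inter_subset_left le_rfl

theorem eI_eqn (hα : Fintype.card α = 12) (hC : Stn 5 6 C) {b s : Finset α} (hb : b ∈ C) (hsb : s ⊆ b) {j lam m : ℕ}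
    (hj : s.card = j) (hj5 : j ≤ 5) (hm : m + j = 6)
    (hl : lam * Nat.choose (6 - j) (5 - j) = Nat.choose (12 - j) (5 - j)) (hpos : 0 < Nat.choose (6 - j) (5 - j))
    (g : ℕ → ℕ) (hg : ∀ s' ⊆ b, s ⊆ s' → eI C b s' = g s'.card) :
    ∑ i ∈ Finset.range (m + 1), Nat.choose m i * g (j + i) = lam := by
  have h1 := hC.lam (J := s) (by rw [hj]; exact hj5)
  rw [hj, hα, ← hl] at h1
  have h2 := Nat.eq_of_mul_eq_mul_right hpos h1
  rw [← h2, card_eq_sum_eI hsb]
  have hcard : (b \ s).card = m := by
    rw [Finset.card_sdiff_of_subset hsb, hC.card b hb, hj]; omega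
  have h3 := Finset.sum_powerset_apply_card (fun i => g (j + i)) (x := b \ s)
  rw [hcard] at h3
  simp only [smul_eq_mul] at h3
  rw [← h3]
  refine Finset.sum_congr rfl fun u hu => ?_
  rw [Finset.mem_powerset] at hu
  have hd : Disjoint s u := Finset.disjoint_left.mpr fun x hx hx' => (Finset.mem_sdiff.mp (hu hx')).2 hx
  rw [hg (s ∪ u) (Finset.union_subset hsb (hu.trans Finset.sdiff_subset)) Finset.subset_union_left,
    Finset.card_union_of_disjoint hd, hj]

theorem eI_six (hC : Stn 5 6 C) {b : Finset α} (hb : b ∈ C) : eI C b b = 1 := by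
  unfold eI
  rw [Finset.card_eq_one]
  refine ⟨b, ?_⟩
  ext c
  rw [Finset.mem_filter, Finset.mem_singleton]
  constructor
  · rintro ⟨hc, h⟩
    have h1 : b ⊆ c := by rw [← h]; exact Finset.inter_subset_right
    exact (Finset.eq_of_subset_of_card_le h1 (by rw [hC.card b hb, hC.card c hc])).symm
  · rintro rfl
    exact ⟨hb, Finset.inter_self _⟩

theorem eI_five (hC : Stn 5 6 C) {b s : Finset α} (hb : b ∈ C) (hs : s.card = 5) : eI C b s = 0 := by
  unfold eI
  rw [Finset.card_eq_zero, Finset.filter_eq_empty_iff]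
  intro c hc h
  have h1 := hC.eq_of_card hb hc (by rw [h, hs])
  rw [← h1, Finset.inter_self] at h
  rw [← h, hC.card b hb] at hs
  norm_num at hs

theorem eI_four (hα : Fintype.card α = 12) (hC : Stn 5 6 C) {b s : Finset α} (hb : b ∈ C) (hsb : s ⊆ b) (hs : s.card = 4) :
    eI C b s = 3 := by
  have h := eI_eqn hα hC hb hsb (j := 4) (lam := 4) (m := 2) hs (by norm_num) (by norm_num) (by decide) (by decide)
    (fun i => if i = 6 then 1 else if i = 5 then 0 else eI C b s) (by
      intro s' hs' hss'
      have h1 := Finset.card_le_card hs'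
      have h2 := Finset.card_le_card hss'
      rw [hC.card b hb] at h1
      rw [hs] at h2
      by_cases h6 : s'.card = 6
      · rw [h6, if_pos rfl, Finset.eq_of_subset_of_card_le hs' (by rw [h6, hC.card b hb]), eI_six hC hb]
      · by_cases h5 : s'.card = 5
        · rw [if_neg h6, if_pos h5, eI_five hC hb h5]
        · rw [if_neg h6, if_neg h5, Finset.eq_of_subset_of_card_le hss' (by omega)])
  simp only [Finset.sum_range_succ, Finset.sum_range_zero] at h
  norm_num [Nat.choose] at h
  omega

theorem eI_three (hα : Fintype.card α = 12) (hC : Stn 5 6 C) {b s : Finset α} (hb : b ∈ C) (hsb : s ⊆ b) (hs : s.card = 3) :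
    eI C b s = 2 := by
  have h := eI_eqn hα hC hb hsb (j := 3) (lam := 12) (m := 3) hs (by norm_num) (by norm_num) (by decide) (by decide)
    (fun i => if i = 6 then 1 else if i = 5 then 0 else if i = 4 then 3 else eI C b s) (by
      intro s' hs' hss'
      have h1 := Finset.card_le_card hs'
      have h2 := Finset.card_le_card hss'
      rw [hC.card b hb] at h1
      rw [hs] at h2
      by_cases h6 : s'.card = 6
      · rw [h6, if_pos rfl, Finset.eq_of_subset_of_card_le hs' (by rw [h6, hC.card b hb]), eI_six hC hb]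
      · by_cases h5 : s'.card = 5
        · rw [if_neg h6, if_pos h5, eI_five hC hb h5]
        · by_cases h4 : s'.card = 4
          · rw [if_neg h6, if_neg h5, if_pos h4, eI_four hα hC hb hs' h4]
          · rw [if_neg h6, if_neg h5, if_neg h4, Finset.eq_of_subset_of_card_le hss' (by omega)])
  simp only [Finset.sum_range_succ, Finset.sum_range_zero] at h
  norm_num [Nat.choose] at h
  omega

theorem eI_two (hα : Fintype.card α = 12) (hC : Stn 5 6 C) {b s : Finset α} (hb : b ∈ C) (hsb : s ⊆ b) (hs : s.card = 2) :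
    eI C b s = 3 := by
  have h := eI_eqn hα hC hb hsb (j := 2) (lam := 30) (m := 4) hs (by norm_num) (by norm_num) (by decide) (by decide)
    (fun i => if i = 6 then 1 else if i = 5 then 0 else if i = 4 then 3 else if i = 3 then 2 else eI C b s) (by
      intro s' hs' hss'
      have h1 := Finset.card_le_card hs'
      have h2 := Finset.card_le_card hss'
      rw [hC.card b hb] at h1
      rw [hs] at h2
      by_cases h6 : s'.card = 6
      · rw [h6, if_pos rfl, Finset.eq_of_subset_of_card_le hs' (by rw [h6, hC.card b hb]), eI_six hC hb]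
      · by_cases h5 : s'.card = 5
        · rw [if_neg h6, if_pos h5, eI_five hC hb h5]
        · by_cases h4 : s'.card = 4
          · rw [if_neg h6, if_neg h5, if_pos h4, eI_four hα hC hb hs' h4]
          · by_cases h3 : s'.card = 3
            · rw [if_neg h6, if_neg h5, if_neg h4, if_pos h3, eI_three hα hC hb hs' h3]
            · rw [if_neg h6, if_neg h5, if_neg h4, if_neg h3, Finset.eq_of_subset_of_card_le hss' (by omega)])
  simp only [Finset.sum_range_succ, Finset.sum_range_zero] at h
  norm_num [Nat.choose] at h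
  omega

theorem ncard_of {B : Set (Finset α)} (hBC : ∀ b, b ∈ C ↔ b ∈ B) (P : Finset α → Prop) [DecidablePred P] :
    {b : Finset α | b ∈ B ∧ P b}.ncard = (C.filter P).card := by
  rw [← Set.ncard_coe_finset]
  congr 1
  ext b
  simp only [Set.mem_setOf_eq, Finset.coe_filter, hBC]

end Cfsg.Agent.L0.St
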